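import Mathlib
import Cfsg.Agent.Lib.Helper94.OMG.Defs
import Cfsg.Agent.Lib.Helper38.OPG.Fix
import Cfsg.Agent.Lib.Helper14.Forms

/-!
# Project OMG (S2415), package [COMMM]

An isometry fixing `e_i, f_i` for all `i` but the last index commutes with the Levi image of a
matrix whose last row and column are standard.
-/

set_option autoImplicit false
open scoped Matrix MatrixGroups

namespace Cfsg.Agent.Lib.Helper38.OMG

open Cfsg.Agent.Lib.Helper31.Siegel Cfsg.Agent.Lib.Helper32.OPG Cfsg.Agent.Lib.Helper64.OParM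
open Cfsg.Agent.Lib.Helper23.OHyp Cfsg.Agent.Lib.Helper94.OMG

universe u

section gen

variable {F : Type u} [Field F] {n : Type} [Fintype n] [DecidableEq n]

omit [Fintype n] in
theorem single_eq_smul (j : n) (c : F) : (Pi.single j c : n → F) = c • Pi.single j (1 : F) := by
  funext x
  by_cases hx : x = j
  · subst hx; simp
  · simp [hx]

/-- a matrix fixes every vector supported on basis vectors it fixes. -/
theorem fix_of_support (M : Matrix n n F) (d : n → F)
    (h : ∀ j, d j = 0 ∨ M *ᵥ (Pi.single j (1 : F)) = Pi.single j 1) : M *ᵥ d = d := by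
  calc M *ᵥ d = M.mulVecLin (∑ j, Pi.single j (d j)) := by
        rw [Finset.univ_sum_single]; rfl
    _ = ∑ j, M.mulVecLin (Pi.single j (d j)) := map_sum _ _ _
    _ = ∑ j, Pi.single j (d j) := by
        apply Finset.sum_congr rfl
        intro j _
        show M *ᵥ (Pi.single j (d j)) = Pi.single j (d j)
        rcases h j with h0 | h1
        · rw [h0, Pi.single_zero, Matrix.mulVec_zero]
        · rw [single_eq_smul, Matrix.mulVec_smul, h1]
    _ = d := Finset.univ_sum_single d

end gen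

section

variable {k : ℕ} {F : Type u} [Field F]

/-- the part of `x` on `e_i, f_i`, `i + 1 < k`. -/
def dP (x : MI k → F) : MI k → F
  | Sum.inl (Sum.inl i) => if i.val + 1 < k then x (Sum.inl (Sum.inl i)) else 0
  | Sum.inl (Sum.inr i) => if i.val + 1 < k then x (Sum.inl (Sum.inr i)) else 0
  | Sum.inr _ => 0

theorem isW_sub_dP (x : MI k → F) : IsW (x - dP x) := by
  intro i hi
  constructor
  · show x (Sum.inl (Sum.inl i)) - dP x (Sum.inl (Sum.inl i)) = 0
    simp [dP, hi]
  · show x (Sum.inl (Sum.inr i)) - dP x (Sum.inl (Sum.inr i)) = 0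
    simp [dP, hi]

theorem BM_fM (a b : F) (i : Fin k) (x : MI k → F) :
    BM k a b (fM i) x = x (Sum.inl (Sum.inl i)) :=
  Cfsg.Agent.Lib.Helper14.minus_polar_inr k F a b i x

theorem BM_eM (a b : F) (i : Fin k) (x : MI k → F) :
    BM k a b (eM i) x = x (Sum.inl (Sum.inr i)) :=
  Cfsg.Agent.Lib.Helper14.minus_polar_inl k F a b i x

theorem Em_eM {a b : F} (τ : ↥(Iso k F)) (i : Fin k) (h : mat τ *ᵥ (E i : Vec k F) = E i) :
    matM (Em k F a b τ) *ᵥ (eM i : MI k → F) = eM i := by
  rw [matM_Em]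
  have h1 : (eM i : MI k → F) ∘ Sum.inl = (E i : Vec k F) := by
    funext j
    simp [Pi.single_apply]
  have h2 : (eM i : MI k → F) ∘ Sum.inr = 0 := by
    funext j
    simp
  rw [h1, h2, h, ← emb_E]
  rfl

theorem Em_fM {a b : F} (τ : ↥(Iso k F)) (i : Fin k) (h : mat τ *ᵥ (Fv i : Vec k F) = Fv i) :
    matM (Em k F a b τ) *ᵥ (fM i : MI k → F) = fM i := by
  rw [matM_Em]
  have h1 : (fM i : MI k → F) ∘ Sum.inl = (Fv i : Vec k F) := by
    funext j
    simp [Pi.single_apply]
  have h2 : (fM i : MI k → F) ∘ Sum.inr = 0 := by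
    funext j
    simp
  rw [h1, h2, h, ← emb_Fv]
  rfl

theorem Em_plane {a b : F} (τ : ↥(Iso k F)) (t : Fin 2) :
    matM (Em k F a b τ) *ᵥ (Pi.single (Sum.inr t) 1 : MI k → F) = Pi.single (Sum.inr t) 1 := by
  rw [matM_Em]
  have h1 : (Pi.single (Sum.inr t) 1 : MI k → F) ∘ Sum.inl = 0 := by
    funext j
    simp
  rw [h1, Matrix.mulVec_zero]
  funext j
  rcases j with j | j
  · simp
  · simp [Pi.single_apply]

end

theorem pkgCommM : PkgCommM.{u} := by
  intro F _ k a b σ g hσ hg
  -- the Levi element fixes `e_l`, `f_l` for the last index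
  have hAl : ∀ l : Fin k, l.val + 1 = k →
      matM (Lm k F a b g) *ᵥ (eM l : MI k → F) = eM l ∧
      matM (Lm k F a b g) *ᵥ (fM l : MI k → F) = fM l := by
    intro l hl
    have hfix := Cfsg.Agent.Lib.Helper38.OPG.pkgFix k F g l (hg l hl).1 (hg l hl).2
    exact ⟨Em_eM _ l hfix.1, Em_fM _ l hfix.2⟩
  -- the Levi element fixes `W`
  have hFixW : ∀ w : MI k → F, IsW w → matM (Lm k F a b g) *ᵥ w = w := by
    intro w hw
    apply fix_of_support
    rintro ((i | i) | t)
    · by_cases hi : i.val + 1 < k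
      · exact Or.inl (hw i hi).1
      · exact Or.inr (hAl i (by have := i.2; omega)).1
    · by_cases hi : i.val + 1 < k
      · exact Or.inl (hw i hi).2
      · exact Or.inr (hAl i (by have := i.2; omega)).2
    · exact Or.inr (Em_plane _ t)
  -- `σ` preserves `W`
  have hInvW : ∀ w : MI k → F, IsW w → IsW (matM σ *ᵥ w) := by
    intro w hw i hi
    constructor
    · rw [← BM_fM a b i (matM σ *ᵥ w)]
      conv_lhs => rw [← (hσ i hi).2]
      rw [BM_act, BM_fM]
      exact (hw i hi).1
    · rw [← BM_eM a b i (matM σ *ᵥ w)]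
      conv_lhs => rw [← (hσ i hi).1]
      rw [BM_act, BM_eM]
      exact (hw i hi).2
  -- `σ` fixes vectors supported on `e_i, f_i`, `i + 1 < k`
  have hFixD : ∀ d : MI k → F, (∀ t : Fin 2, d (Sum.inr t) = 0) →
      (∀ l : Fin k, l.val + 1 = k → d (Sum.inl (Sum.inl l)) = 0 ∧ d (Sum.inl (Sum.inr l)) = 0) →
      matM σ *ᵥ d = d := by
    intro d hd1 hd2
    apply fix_of_support
    rintro ((i | i) | t)
    · by_cases hi : i.val + 1 < k
      · exact Or.inr (hσ i hi).1
      · exact Or.inl (hd2 i (by have := i.2; omega)).1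
    · by_cases hi : i.val + 1 < k
      · exact Or.inr (hσ i hi).2
      · exact Or.inl (hd2 i (by have := i.2; omega)).2
    · exact Or.inl (hd1 t)
  apply extM_act
  intro x
  have hx : x = dP x + (x - dP x) := by abel
  have hdP1 : ∀ t : Fin 2, dP x (Sum.inr t) = 0 := fun t => rfl
  have hdP2 : ∀ l : Fin k, l.val + 1 = k →
      dP x (Sum.inl (Sum.inl l)) = 0 ∧ dP x (Sum.inl (Sum.inr l)) = 0 := by
    intro l hl
    constructor
    · show (if l.val + 1 < k then x (Sum.inl (Sum.inl l)) else 0) = 0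
      rw [if_neg (by omega)]
    · show (if l.val + 1 < k then x (Sum.inl (Sum.inr l)) else 0) = 0
      rw [if_neg (by omega)]
  -- the Levi image of the `D`-part stays in `D`
  have hAd1 : ∀ t : Fin 2, (matM (Lm k F a b g) *ᵥ dP x) (Sum.inr t) = 0 := by
    intro t
    rw [Lm_apply, matM_Em]
    exact hdP1 t
  have hAd2 : ∀ l : Fin k, l.val + 1 = k →
      (matM (Lm k F a b g) *ᵥ dP x) (Sum.inl (Sum.inl l)) = 0 ∧
      (matM (Lm k F a b g) *ᵥ dP x) (Sum.inl (Sum.inr l)) = 0 := by
    intro l hl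
    constructor
    · rw [← BM_fM a b l (matM (Lm k F a b g) *ᵥ dP x)]
      conv_lhs => rw [← (hAl l hl).2]
      rw [BM_act, BM_fM]
      exact (hdP2 l hl).1
    · rw [← BM_eM a b l (matM (Lm k F a b g) *ᵥ dP x)]
      conv_lhs => rw [← (hAl l hl).1]
      rw [BM_act, BM_eM]
      exact (hdP2 l hl).2
  have hw := isW_sub_dP x
  rw [mulM_act, mulM_act]
  conv_lhs => rw [hx, Matrix.mulVec_add, hFixD (dP x) hdP1 hdP2, Matrix.mulVec_add,
    hFixW _ (hInvW _ hw)]
  conv_rhs => rw [hx, Matrix.mulVec_add, hFixW _ hw, Matrix.mulVec_add,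
    hFixD _ hAd1 hAd2]

end Cfsg.Agent.Lib.Helper38.OMG
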