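import Mathlib
import Cfsg.Agent.Lib.Helper94.OMG.Defs
import Cfsg.Agent.Lib.Helper38.OPG.XL
import Cfsg.Agent.Lib.Helper38.OMG.CommM
import Cfsg.Agent.Lib.Helper65.OMG.EmSieg
import Cfsg.Agent.Lib.Helper14.Eichler
import Cfsg.Agent.Lib.Helper14.Forms

/-!
# Project OMG (S2415), package [ROOTS]

With the Levi `SL_k` and the mixing element `u`, the subgroup `K` contains the Eichler elements
`E(e_i, w)`, `w` in the span of the `u`-orbit of `f_l`, and `E(f_i, w)`, `w` in the span of the
`u`-orbit of `e_l` (`i ≠ l`).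
-/

set_option autoImplicit false
open scoped Matrix MatrixGroups

namespace Cfsg.Agent.Lib.Helper38.OMG

open Cfsg.Agent.Lib.Helper31.Siegel Cfsg.Agent.Lib.Helper32.OPG Cfsg.Agent.Lib.Helper64.OParM
open Cfsg.Agent.Lib.Helper23.OHyp Cfsg.Agent.Lib.Helper94.OMG Cfsg.Agent.Lib.Helper14

universe u

section eich

variable {k : ℕ} {F : Type u} [Field F] (a b : F)

theorem BM_eq (x y : MI k → F) :
    BM k a b x y = QuadraticMap.polar ⇑(minusQF k F a b) x y := by
  rw [minusQF_coe]

theorem QM_eq (x : MI k → F) : QM k a b x = minusQF k F a b x := by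
  rw [minusQF_coe]

theorem BM_smul_right' (c : F) (x y : MI k → F) : BM k a b x (c • y) = c * BM k a b x y := by
  rw [BM_eq, BM_eq, QuadraticMap.polar_smul_right, smul_eq_mul]

theorem BM_add_right' (x y z : MI k → F) : BM k a b x (y + z) = BM k a b x y + BM k a b x z := by
  rw [BM_eq, BM_eq, BM_eq, QuadraticMap.polar_add_right]

theorem BM_zero_right' (x : MI k → F) : BM k a b x 0 = 0 := by
  rw [BM_eq, QuadraticMap.polar_zero_right]

/-- `IsEich` in terms of the Eichler matrix of the quadratic form `minusQF`. -/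
theorem isEich_iff (p w : MI k → F) (σ : ↥(GM k F a b)) :
    IsEich a b p w σ ↔ ∀ x, matM σ *ᵥ x = eichMat (minusQF k F a b) p w *ᵥ x := by
  unfold IsEich
  constructor
  · intro h x
    rw [h x, eichMat_mulVec, ← BM_eq, ← BM_eq, ← QM_eq]
  · intro h x
    rw [h x, eichMat_mulVec, ← BM_eq, ← BM_eq, ← QM_eq]

theorem isEich_ext {p w : MI k → F} {σ τ : ↥(GM k F a b)} (hσ : IsEich a b p w σ)
    (hτ : IsEich a b p w τ) : σ = τ :=
  extM_act fun x => by rw [hσ x, hτ x]

/-- existence of Eichler elements. -/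
theorem exists_isEich (p w : MI k → F) (hp : QM k a b p = 0) (hpw : BM k a b p w = 0) :
    ∃ σ : ↥(GM k F a b), IsEich a b p w σ := by
  have hp' : minusQF k F a b p = 0 := by rw [← QM_eq]; exact hp
  have hpw' : QuadraticMap.polar ⇑(minusQF k F a b) p w = 0 := by rw [← BM_eq]; exact hpw
  have hpw'' : QuadraticMap.polar ⇑(minusQF k F a b) p (-w) = 0 := by
    rw [QuadraticMap.polar_neg_right, hpw', neg_zero]
  have h1 : eichMat (minusQF k F a b) p w * eichMat (minusQF k F a b) p (-w) = 1 := by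
    rw [eichMat_mul _ hp' hpw' hpw'', add_neg_cancel, eichMat_zero_right]
  have h2 : eichMat (minusQF k F a b) p (-w) * eichMat (minusQF k F a b) p w = 1 := by
    rw [eichMat_mul _ hp' hpw'' hpw', neg_add_cancel, eichMat_zero_right]
  refine ⟨⟨⟨eichMat (minusQF k F a b) p w, eichMat (minusQF k F a b) p (-w), h1, h2⟩, ?_⟩, ?_⟩
  · intro x _
    show Cfsg.quadFormMinus k F a b (eichMat (minusQF k F a b) p w *ᵥ x) =
      Cfsg.quadFormMinus k F a b x
    have h3 := eichMat_isometry (minusQF k F a b) hp' hpw' x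
    rw [minusQF_coe] at h3
    exact h3
  · rw [isEich_iff]
    intro x
    rfl

theorem isEich_mul {p w w' : MI k → F} {σ τ : ↥(GM k F a b)} (hp : QM k a b p = 0)
    (hpw : BM k a b p w = 0) (hpw' : BM k a b p w' = 0) (hσ : IsEich a b p w σ)
    (hτ : IsEich a b p w' τ) : IsEich a b p (w + w') (σ * τ) := by
  have hp' : minusQF k F a b p = 0 := by rw [← QM_eq]; exact hp
  have h1 : QuadraticMap.polar ⇑(minusQF k F a b) p w = 0 := by rw [← BM_eq]; exact hpw
  have h2 : QuadraticMap.polar ⇑(minusQF k F a b) p w' = 0 := by rw [← BM_eq]; exact hpw'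
  rw [isEich_iff] at hσ hτ ⊢
  intro x
  rw [mulM_act, hτ x, hσ, Matrix.mulVec_mulVec, eichMat_mul _ hp' h1 h2]

theorem isEich_zero {p : MI k → F} {σ : ↥(GM k F a b)} (hσ : IsEich a b p 0 σ) : σ = 1 := by
  rw [isEich_iff] at hσ
  apply extM_act
  intro x
  rw [hσ x, eichMat_zero_right, Matrix.one_mulVec, oneM_act]

theorem isEich_conj {p w : MI k → F} {σ : ↥(GM k F a b)} (hσ : IsEich a b p w σ)
    (g : ↥(GM k F a b)) : IsEich a b (matM g *ᵥ p) (matM g *ᵥ w) (g * σ * g⁻¹) := by
  rw [isEich_iff] at hσ ⊢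
  intro x
  have hS : ∀ y, minusQF k F a b (matM g *ᵥ y) = minusQF k F a b y := by
    intro y
    rw [← QM_eq, ← QM_eq]
    exact QM_act g y
  rw [mulM_act, mulM_act, hσ, Matrix.mulVec_mulVec, eichMat_conj _ _ hS, ← Matrix.mulVec_mulVec,
    actM_inv]

end eich

section roots

variable {k : ℕ} {F : Type u} [Field F] {a b : F}

theorem pow_fix (u : ↥(GM k F a b)) (p : MI k → F) (hup : matM u *ᵥ p = p) (j : ℕ) :
    matM (u ^ j) *ᵥ p = p := by
  induction j with
  | zero => rw [pow_zero, oneM_act]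
  | succ j ih => rw [pow_succ', mulM_act, ih, hup]

/-- the common core of both halves of [ROOTS]. -/
theorem roots_aux (K : Subgroup ↥(GM k F a b)) (u : ↥(GM k F a b)) (hu : u ∈ K)
    (p q : MI k → F) (hp : QM k a b p = 0) (hpq : BM k a b p q = 0) (hup : matM u *ᵥ p = p)
    (hgen : ∀ c : F, ∃ τ ∈ K, IsEich a b p (c • q) τ) (w : MI k → F)
    (hw : w ∈ Submodule.span F (Set.range fun j : ℕ => matM (u ^ j) *ᵥ q)) :
    ∀ σ : ↥(GM k F a b), IsEich a b p w σ → σ ∈ K := by
  have key : BM k a b p w = 0 ∧ ∀ (c : F) (σ : ↥(GM k F a b)), IsEich a b p (c • w) σ → σ ∈ K := by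
    induction hw using Submodule.span_induction with
    | mem x hx =>
      obtain ⟨j, rfl⟩ := hx
      constructor
      · have h1 := BM_act (a := a) (b := b) (u ^ j) p q
        rw [pow_fix u p hup j] at h1
        rw [h1]
        exact hpq
      · intro c σ hσ
        obtain ⟨τ, hτK, hτ⟩ := hgen c
        have hc := isEich_conj a b hτ (u ^ j)
        rw [pow_fix u p hup j, Matrix.mulVec_smul] at hc
        rw [isEich_ext a b hσ hc]
        exact K.mul_mem (K.mul_mem (K.pow_mem hu j) hτK) (K.inv_mem (K.pow_mem hu j))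
    | zero =>
      constructor
      · exact BM_zero_right' a b p
      · intro c σ hσ
        rw [smul_zero] at hσ
        rw [isEich_zero a b hσ]
        exact K.one_mem
    | add x y _ _ hx hy =>
      constructor
      · rw [BM_add_right', hx.1, hy.1, add_zero]
      · intro c σ hσ
        have h1 : BM k a b p (c • x) = 0 := by rw [BM_smul_right', hx.1, mul_zero]
        have h2 : BM k a b p (c • y) = 0 := by rw [BM_smul_right', hy.1, mul_zero]
        obtain ⟨σ₁, hσ₁⟩ := exists_isEich a b p (c • x) hp h1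
        obtain ⟨σ₂, hσ₂⟩ := exists_isEich a b p (c • y) hp h2
        have h3 := isEich_mul a b hp h1 h2 hσ₁ hσ₂
        rw [smul_add] at hσ
        rw [isEich_ext a b hσ h3]
        exact K.mul_mem (hx.2 c σ₁ hσ₁) (hy.2 c σ₂ hσ₂)
    | smul d x _ hx =>
      constructor
      · rw [BM_smul_right', hx.1, mul_zero]
      · intro c σ hσ
        rw [smul_smul] at hσ
        exact hx.2 (c * d) σ hσ
  intro σ hσ
  apply key.2 1 σ
  rw [one_smul]
  exact hσ

theorem QM_eM (i : Fin k) : QM k a b (eM i : MI k → F) = 0 := by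
  rw [← emb_E, Cfsg.Agent.Lib.Helper65.OMG.QM_emb]
  exact Q_E i

theorem QM_fM (i : Fin k) : QM k a b (fM i : MI k → F) = 0 := by
  rw [← emb_Fv, Cfsg.Agent.Lib.Helper65.OMG.QM_emb]
  exact Q_Fv i

end roots

theorem pkgRoots : PkgRoots.{u} := by
  intro F _ _ k a b hab K hL u hu hfix l i hl hil w
  have hi : i.val + 1 < k := by
    have h1 := i.2
    have h2 : i.val ≠ l.val := fun h => hil (Fin.ext h)
    omega
  constructor
  · intro hw
    apply roots_aux K u hu (eM i) (fM l) (QM_eM i) _ (hfix i hi).1 _ w hw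
    · rw [BM_eM]
      simp [hil]
    · intro c
      refine ⟨Lm k F a b (Matrix.SpecialLinearGroup.transvection hil (-c)), hL _, ?_⟩
      have hx := Cfsg.Agent.Lib.Helper38.OPG.pkgXL k F i l hil (-c)
      have hx' : IsSiegel (Fv l) (E i) c (L k F (Matrix.SpecialLinearGroup.transvection hil (-c))) := by
        intro v
        rw [hx v]
        module
      have h1 := Cfsg.Agent.Lib.Helper65.OMG.pkgEmSieg F k a b (Fv l) (E i) c _ (Q_Fv l) hx'
      rw [emb_E, emb_Fv] at h1
      exact h1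
  · intro hw
    apply roots_aux K u hu (fM i) (eM l) (QM_fM i) _ (hfix i hi).2 _ w hw
    · rw [BM_fM]
      simp [hil]
    · intro c
      refine ⟨Lm k F a b (Matrix.SpecialLinearGroup.transvection (Ne.symm hil) c), hL _, ?_⟩
      have hx := Cfsg.Agent.Lib.Helper38.OPG.pkgXL k F l i (Ne.symm hil) c
      have h1 := Cfsg.Agent.Lib.Helper65.OMG.pkgEmSieg F k a b (E l) (Fv i) c _ (Q_E l) hx
      rw [emb_E, emb_Fv] at h1
      exact h1

end Cfsg.Agent.Lib.Helper38.OMG
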